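import Mathlib
import Cfsg.Agent.Lib.Helper12.KS.Defs

/-! # S0518 packages [SylIn] and [Fus]: Sylow's theorem inside a subgroup, extremal conjugation. -/

set_option autoImplicit false

namespace Cfsg.Agent.Lib.Helper79.KS

open Cfsg Cfsg.Agent.Lib.Helper12.KS

universe u

theorem pkgSylIn : Cfsg.Agent.Lib.Helper12.KS.PkgSylIn.{u} := by
  intro G _ _ P T hT R hRP hR
  obtain ⟨hTP, hT2, hodd⟩ := hT
  haveI : Fact (Nat.Prime 2) := ⟨Nat.prime_two⟩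
  -- `T` as a Sylow 2-subgroup of `P`
  have hT2' : IsPGroup 2 ↥(T.subgroupOf P) :=
    hT2.comap_of_injective P.subtype P.subtype_injective
  have hidx : ¬ 2 ∣ (T.subgroupOf P).index := by
    intro h
    have h1 : (T.subgroupOf P).index = T.relIndex P := rfl
    rw [h1] at h
    exact (Nat.not_even_iff_odd.mpr hodd) (even_iff_two_dvd.mpr h)
  obtain ⟨TS, hTS⟩ : ∃ TS : Sylow 2 ↥P, (TS : Subgroup ↥P) = T.subgroupOf P :=
    ⟨hT2'.toSylow hidx, rfl⟩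
  have hR2' : IsPGroup 2 ↥(R.subgroupOf P) :=
    hR.comap_of_injective P.subtype P.subtype_injective
  obtain ⟨Q, hQ⟩ := hR2'.exists_le_sylow
  obtain ⟨g, hg⟩ := MulAction.exists_smul_eq ↥P Q TS
  refine ⟨(g : G), g.2, ?_⟩
  intro r hr
  have hrP : r ∈ P := hRP hr
  have h1 : (⟨r, hrP⟩ : ↥P) ∈ (Q : Subgroup ↥P) := hQ (Subgroup.mem_subgroupOf.mpr hr)
  have h2 : g * (⟨r, hrP⟩ : ↥P) * g⁻¹ ∈ ((g • Q : Sylow 2 ↥P) : Subgroup ↥P) := by
    rw [Sylow.coe_subgroup_smul]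
    exact Subgroup.smul_mem_pointwise_smul _ (MulAut.conj g) _ h1
  rw [hg, hTS] at h2
  exact Subgroup.mem_subgroupOf.mp h2

theorem pkgFus : Cfsg.Agent.Lib.Helper12.KS.PkgFus.{u} := by
  intro G _ _ P T c hT hcP g R hR hcent
  -- `R' = g⁻¹ R g` centralizes `c`
  have hR' : IsPGroup 2 ↥(R.map (MulAut.conj g⁻¹).toMonoidHom) := hR.map _
  have hR'P : R.map (MulAut.conj g⁻¹).toMonoidHom ≤ P := by
    rintro _ ⟨r, hr, rfl⟩
    rw [← hcP, Subgroup.mem_centralizer_iff]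
    intro x hx
    rw [Set.mem_singleton_iff] at hx
    subst hx
    have h := hcent r hr
    show x * (g⁻¹ * r * g⁻¹⁻¹) = (g⁻¹ * r * g⁻¹⁻¹) * x
    rw [inv_inv]
    have h' : g⁻¹ * (r * (g * x * g⁻¹)) * g = g⁻¹ * ((g * x * g⁻¹) * r) * g := by rw [h]
    calc x * (g⁻¹ * r * g) = g⁻¹ * ((g * x * g⁻¹) * r) * g := by group
      _ = g⁻¹ * (r * (g * x * g⁻¹)) * g := h'.symm
      _ = (g⁻¹ * r * g) * x := by group
  obtain ⟨p, hp, hpT⟩ := pkgSylIn P T hT _ hR'P hR'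
  refine ⟨p * g⁻¹, ?_, ?_⟩
  · have hpc : p * c = c * p := by
      rw [← hcP, Subgroup.mem_centralizer_iff] at hp
      exact (hp c rfl).symm
    calc p * g⁻¹ * (g * c * g⁻¹) * (p * g⁻¹)⁻¹ = p * c * p⁻¹ := by group
      _ = c := by rw [hpc, mul_inv_cancel_right]
  · intro r hr
    have h1 : g⁻¹ * r * g⁻¹⁻¹ ∈ R.map (MulAut.conj g⁻¹).toMonoidHom := ⟨r, hr, rfl⟩
    have h2 := hpT _ h1
    have h3 : p * g⁻¹ * r * (p * g⁻¹)⁻¹ = p * (g⁻¹ * r * g⁻¹⁻¹) * p⁻¹ := by group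
    rw [h3]
    exact h2

end Cfsg.Agent.Lib.Helper79.KS
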