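import Mathlib
import Cfsg.Agent.Lib.Helper12.KS.Defs

/-! # S0518 packages [A2], [ACard], [MaxEx]. -/

set_option autoImplicit false

namespace Cfsg.Agent.Lib.Helper79.KS

open Cfsg Cfsg.Agent.Lib.Helper12.KS

universe u

theorem pkgA2 : Cfsg.Agent.Lib.Helper12.KS.PkgA2.{u} := by
  intro G _ _ H P hP hPH
  obtain ⟨⟨T, hT2, hTne, hPT⟩, hmax⟩ := hP
  have hTP : T ≤ P := by rw [hPT]; exact Subgroup.le_normalizer
  refine ⟨hPH, ⟨T, hTP.trans hPH, hT2, hTne, ?_⟩, ?_⟩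
  · rw [← hPT]
    exact (inf_eq_left.mpr hPH).symm
  · intro R hRH hR2 hRne hPR
    have h1 : Subgroup.normalizer (R : Set G) = P := hmax _ ⟨R, hR2, hRne, rfl⟩ hPR
    rw [h1]
    exact inf_eq_left.mpr hPH

/-- The order of a Sylow 2-subgroup (in the sense of `IsSylowTwoIn`) of a group of order 24. -/
theorem card_eq_eight_of_isSylowTwoIn {G : Type u} [Group G] [Finite G] (P T : Subgroup G)
    (hT : IsSylowTwoIn T P) (hP : Nat.card ↥P = 24) : Nat.card ↥T = 8 := by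
  obtain ⟨hTP, hT2, hodd⟩ := hT
  haveI : Fact (Nat.Prime 2) := ⟨Nat.prime_two⟩
  obtain ⟨k, hk⟩ := IsPGroup.iff_card.mp hT2
  have h1 : Nat.card ↥(T.subgroupOf P) * (T.subgroupOf P).index = Nat.card ↥P :=
    Subgroup.card_mul_index _
  have h2 : Nat.card ↥(T.subgroupOf P) = Nat.card ↥T :=
    Nat.card_congr (Subgroup.subgroupOfEquivOfLe hTP).toEquiv
  have h3 : (T.subgroupOf P).index = T.relIndex P := rfl
  rw [h2, h3, hP, hk] at h1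
  obtain ⟨j, hj⟩ := hodd
  rw [hj] at h1
  rw [hk]
  -- `2 ^ k * (2 * j + 1) = 24`
  have hk4 : k < 5 := by
    by_contra hc
    have : 2 ^ 5 ≤ 2 ^ k := Nat.pow_le_pow_right (by norm_num) (by omega)
    nlinarith
  interval_cases k <;> omega

theorem card_perm_fin_four : Nat.card (Equiv.Perm (Fin 4)) = 24 := by
  rw [Nat.card_eq_fintype_card, Fintype.card_perm, Fintype.card_fin]
  rfl

theorem pkgACard : Cfsg.Agent.Lib.Helper12.KS.PkgACard.{u} := by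
  intro G _ _ P₁ P₂ T h
  obtain ⟨hne, hmax₁, hmax₂, hT₁, hT₂, ⟨e₁⟩, ⟨e₂⟩⟩ := h
  have hc₁ : Nat.card ↥P₁ = 24 := by rw [Nat.card_congr e₁.toEquiv, card_perm_fin_four]
  have hT8 : Nat.card ↥T = 8 := card_eq_eight_of_isSylowTwoIn P₁ T hT₁ hc₁
  have hTle : T ≤ P₁ ⊓ P₂ := le_inf hT₁.1 hT₂.1
  have hd1 : 8 ∣ Nat.card ↥(P₁ ⊓ P₂) := by
    rw [← hT8]
    exact Subgroup.card_dvd_of_le hTle
  have hd2 : Nat.card ↥(P₁ ⊓ P₂) ∣ 24 := by
    rw [← hc₁]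
    exact Subgroup.card_dvd_of_le inf_le_left
  obtain ⟨m, hm⟩ := hd1
  have hm3 : m ∣ 3 := by
    rw [hm] at hd2
    exact (Nat.mul_dvd_mul_iff_left (by norm_num : 0 < 8)).mp (by simpa using hd2)
  have hm' : m = 1 ∨ m = 3 := by
    have := Nat.le_of_dvd (by norm_num) hm3
    interval_cases m <;> simp_all
  rcases hm' with rfl | rfl
  · simpa using hm
  · exfalso
    have h24 : Nat.card ↥P₁ ≤ Nat.card ↥(P₁ ⊓ P₂) := by rw [hm, hc₁]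
    have heq : P₁ ⊓ P₂ = P₁ := Subgroup.eq_of_le_of_card_ge inf_le_left h24
    have hle : P₁ ≤ P₂ := inf_eq_left.mp heq
    exact hne (hmax₁.2 P₂ hmax₂.1 hle).symm

/-- Lexicographic maximum of three natural-number valued functions on a finite nonempty set. -/
theorem exists_lexmax_three {α : Type*} (s : Set α) (hfin : s.Finite) (hs : s.Nonempty)
    (f g h : α → ℕ) :
    ∃ x ∈ s, ∀ y ∈ s, f y ≤ f x ∧ (f y = f x → g y ≤ g x ∧ (g y = g x → h y ≤ h x)) := by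
  obtain ⟨x₁, hx₁, hmax₁⟩ := Set.exists_max_image s f hfin hs
  have hfin₁ : {y | y ∈ s ∧ f y = f x₁}.Finite := hfin.subset (fun y hy => hy.1)
  obtain ⟨x₂, hx₂, hmax₂⟩ := Set.exists_max_image {y | y ∈ s ∧ f y = f x₁} g hfin₁ ⟨x₁, hx₁, rfl⟩
  have hfin₂ : {y | (y ∈ s ∧ f y = f x₁) ∧ g y = g x₂}.Finite := hfin.subset (fun y hy => hy.1.1)
  obtain ⟨x₃, hx₃, hmax₃⟩ :=
    Set.exists_max_image {y | (y ∈ s ∧ f y = f x₁) ∧ g y = g x₂} h hfin₂ ⟨x₂, hx₂, rfl⟩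
  obtain ⟨⟨hx₃s, hf₃⟩, hg₃⟩ := hx₃
  refine ⟨x₃, hx₃s, fun y hy => ⟨?_, fun hfy => ⟨?_, fun hgy => ?_⟩⟩⟩
  · rw [hf₃]
    exact hmax₁ y hy
  · rw [hg₃]
    exact hmax₂ y ⟨hy, hfy.trans hf₃⟩
  · exact hmax₃ y ⟨⟨hy, hfy.trans hf₃⟩, hgy.trans hg₃⟩

theorem pkgMaxEx : Cfsg.Agent.Lib.Helper12.KS.PkgMaxEx.{u} := by
  intro G _ _ M hne
  obtain ⟨T₀, hT₀, hmax⟩ := exists_lexmax_three (straddlingTwoSubgroups M) (Set.toFinite _) hne
    (fun T => maxElemAbelianOrder T) (fun T => Nat.card ↥(thompsonSubgroupOf 2 T))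
    (fun T => Nat.card ↥T)
  exact ⟨T₀, hT₀, hmax⟩

end Cfsg.Agent.Lib.Helper79.KS
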