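import Mathlib
import Cfsg.Agent.Lib.Helper12.KS.Defs

/-! # S0518 package [Fin]: from the inside-`G` formulation to subgroups of `↥H`. -/

set_option autoImplicit false

namespace Cfsg.Agent.Lib.Helper79.KS

open Cfsg Cfsg.Agent.Lib.Helper12.KS

universe u

/-- A maximal 2-local of `H` stated inside `G` is a maximal 2-local of the group `↥H`. -/
theorem isMaximalTwoLocal_subgroupOf {G : Type u} [Group G] (H K : Subgroup G)
    (hK : MaxLocIn H K) : IsMaximalTwoLocal (K.subgroupOf H) := by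
  obtain ⟨hKH, ⟨R, hRH, hR2, hRne, hKR⟩, hmax⟩ := hK
  refine ⟨⟨R.subgroupOf H, hR2.comap_of_injective H.subtype H.subtype_injective, ?_, ?_⟩, ?_⟩
  · intro h
    rw [Subgroup.subgroupOf_eq_bot, disjoint_iff, inf_eq_left.mpr hRH] at h
    exact hRne h
  · rw [← Subgroup.subgroupOf_normalizer_eq hRH, hKR, Subgroup.inf_subgroupOf_right]
  · rintro N' ⟨T'', hT2, hTne, rfl⟩ hle
    obtain ⟨R', hR'⟩ : ∃ R' : Subgroup G, R' = T''.map H.subtype := ⟨_, rfl⟩
    have hR'H : R' ≤ H := by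
      rw [hR']
      rintro _ ⟨x, _, rfl⟩
      exact x.2
    have hR'2 : IsPGroup 2 ↥R' := by
      rw [hR']
      exact hT2.map _
    have hsub : R'.subgroupOf H = T'' := by
      rw [hR']
      ext x
      rw [Subgroup.mem_subgroupOf]
      constructor
      · rintro ⟨y, hy, hxy⟩
        have : y = x := Subtype.ext hxy
        exact this ▸ hy
      · intro hx
        exact ⟨x, hx, rfl⟩
    have hR'ne : R' ≠ ⊥ := by
      intro h
      apply hTne
      rw [← hsub, h]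
      ext x
      rw [Subgroup.mem_subgroupOf, Subgroup.mem_bot, Subgroup.mem_bot]
      exact ⟨fun hx => Subtype.ext hx, fun hx => by rw [hx]; rfl⟩
    have hnorm : Subgroup.normalizer (T'' : Set ↥H) =
        (Subgroup.normalizer (R' : Set G)).subgroupOf H := by
      rw [Subgroup.subgroupOf_normalizer_eq hR'H, hsub]
    have hKR' : K ≤ Subgroup.normalizer (R' : Set G) := by
      intro k hk
      have h1 : (⟨k, hKH hk⟩ : ↥H) ∈ K.subgroupOf H := Subgroup.mem_subgroupOf.mpr hk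
      have h2 := hle h1
      rw [hnorm] at h2
      exact Subgroup.mem_subgroupOf.mp h2
    have h3 := hmax R' hR'H hR'2 hR'ne hKR'
    rw [hnorm, ← Subgroup.inf_subgroupOf_right, h3]

theorem pkgFin : Cfsg.Agent.Lib.Helper12.KS.PkgFin.{u} := by
  intro G _ _ H K₁ K₂ hne hK₁ hK₂ ⟨e₁⟩ ⟨e₂⟩ hcard
  have hK₁H : K₁ ≤ H := hK₁.1
  have hK₂H : K₂ ≤ H := hK₂.1
  refine ⟨K₁.subgroupOf H, K₂.subgroupOf H, ?_, isMaximalTwoLocal_subgroupOf H K₁ hK₁,
    isMaximalTwoLocal_subgroupOf H K₂ hK₂,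
    ⟨(Subgroup.subgroupOfEquivOfLe hK₁H).trans e₁⟩, ⟨(Subgroup.subgroupOfEquivOfLe hK₂H).trans e₂⟩, ?_⟩
  · intro h
    rw [Subgroup.subgroupOf_inj, inf_eq_left.mpr hK₁H, inf_eq_left.mpr hK₂H] at h
    exact hne h
  · have h1 : K₁.subgroupOf H ⊓ K₂.subgroupOf H = (K₁ ⊓ K₂).subgroupOf H := by
      ext x
      simp only [Subgroup.mem_inf, Subgroup.mem_subgroupOf]
    rw [h1, Nat.card_congr (Subgroup.subgroupOfEquivOfLe (inf_le_left.trans hK₁H)).toEquiv, hcard]

end Cfsg.Agent.Lib.Helper79.KS
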