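import Mathlib
import Cfsg.Agent.Lib.Helper12.KS.Defs
import Cfsg.Agent.Lib.Helper91.ThompsonFpf2

/-! # S0518 package [J]: the normalizer of `J(S)` is a 2-local. -/

set_option autoImplicit false

namespace Cfsg.Agent.Lib.Helper79.KS

open Cfsg Cfsg.Agent.Lib.Helper12.KS

universe u

theorem pkgJ : Cfsg.Agent.Lib.Helper12.KS.PkgJ.{u} := by
  intro G _ _ heven S
  haveI : Fact (Nat.Prime 2) := ⟨Nat.prime_two⟩
  have hS2 : IsPGroup 2 ↥(S : Subgroup G) := S.isPGroup'
  have hSne : (S : Subgroup G) ≠ ⊥ := by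
    intro h
    have h2 : 2 ∣ Nat.card G := even_iff_two_dvd.mp heven
    have h3 : 2 ∣ Nat.card ↥(S : Subgroup G) := S.dvd_card_of_dvd_card h2
    rw [h, Subgroup.card_bot] at h3
    omega
  have hJne := Cfsg.Agent.Lib.Helper91.thompsonSubgroupOf_ne_bot (S : Subgroup G) hS2 hSne
  refine ⟨thompsonSubgroupOf 2 (S : Subgroup G), ?_, hJne, rfl⟩
  have hle : thompsonSubgroupOf 2 (S : Subgroup G) ≤ (S : Subgroup G) := by
    unfold thompsonSubgroupOf
    rintro _ ⟨x, _, rfl⟩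
    exact x.2
  exact hS2.to_le hle

end Cfsg.Agent.Lib.Helper79.KS
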