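import Mathlib
import Cfsg.Agent.Lib.Helper12.KS.Defs

/-! # S0518 package [Odd]: elements of odd order lie in every normal subgroup of index 2. -/

set_option autoImplicit false

namespace Cfsg.Agent.Lib.Helper79.KS

open Cfsg Cfsg.Agent.Lib.Helper12.KS

universe u

theorem pkgOdd : Cfsg.Agent.Lib.Helper12.KS.PkgOdd.{u} := by
  intro G _ _ M hM hidx
  unfold oddGen
  rw [Subgroup.closure_le]
  intro g hg
  obtain ⟨k, hk⟩ : Odd (orderOf g) := hg
  have h2 : g ^ 2 ∈ M := Subgroup.sq_mem_of_index_two hidx g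
  have h3 : (g ^ 2) ^ k ∈ M := M.pow_mem h2 k
  have h4 : g ^ (2 * k + 1) = 1 := by rw [← hk]; exact pow_orderOf_eq_one g
  have h5 : g = ((g ^ 2) ^ k)⁻¹ := by
    rw [eq_inv_iff_mul_eq_one, ← pow_mul, ← pow_succ', h4]
  show g ∈ M
  rw [h5]
  exact M.inv_mem h3

end Cfsg.Agent.Lib.Helper79.KS
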